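import Cfsg.Agent.H494.TC.FiChk

/-!
# The pairs of elements of order 7 for the classes 20 … 38 of `Fi22` (helper494; rows `Fi22` of S4173, S2464, S2452)
-/

set_option autoImplicit false
set_option maxRecDepth 1000000
set_option exponentiation.threshold 300000

namespace Cfsg.Agent.H494.TC.Fi

theorem good20 : GoodP [7, 1, 5]
    [3, 2, 4, 8] :=
  good_of_chk [3, 0, 1] 0 (by decide +kernel) (by decide +kernel)

theorem good21 : GoodP [1, 4, 6]
    [0, 5] :=
  good_of_chk [4] 0 (by decide +kernel) (by decide +kernel)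

theorem good22 : GoodP [1, 7, 0, 5, 2, 1]
    [3, 2, 6, 7, 3, 5, 4, 5, 7, 3, 4, 8] :=
  good_of_chk [3, 0] 0 (by decide +kernel) (by decide +kernel)

theorem good23 : GoodP [3, 6, 7, 2, 3]
    [5, 4, 7] :=
  good_of_chk [4] 0 (by decide +kernel) (by decide +kernel)

theorem good24 : GoodP [0, 8, 3]
    [1, 2, 7] :=
  good_of_chk [4, 3, 0] 0 (by decide +kernel) (by decide +kernel)

theorem good25 : GoodP [5, 2, 8]
    [3, 4, 6, 7] :=
  good_of_chk [6, 3] 0 (by decide +kernel) (by decide +kernel)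

theorem good26 : GoodP [1, 7, 6, 3, 0]
    [1, 2, 4, 3, 5, 4] :=
  good_of_chk [3] 0 (by decide +kernel) (by decide +kernel)

theorem good27 : GoodP [5, 4, 6, 7, 0]
    [1, 3, 2, 6, 7, 3] :=
  good_of_chk [1] 0 (by decide +kernel) (by decide +kernel)

theorem good28 : GoodP [7, 5, 4, 2, 1, 3, 5, 2, 4]
    [0, 6, 7, 3] :=
  good_of_chk [2] 0 (by decide +kernel) (by decide +kernel)

theorem good29 : GoodP [5, 1, 7]
    [2, 3, 4] :=
  good_of_chk [0] 0 (by decide +kernel) (by decide +kernel)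

theorem good30 : GoodP [4, 8, 2]
    [1, 7, 3] :=
  good_of_chk [4] 0 (by decide +kernel) (by decide +kernel)

theorem good31 : GoodP [8, 5, 7, 2, 8]
    [1, 3, 4, 7, 3] :=
  good_of_chk [7, 4] 0 (by decide +kernel) (by decide +kernel)

theorem good32 : GoodP [3, 5, 2, 7, 0]
    [1, 4, 8] :=
  good_of_chk [7, 5, 2, 1] 0 (by decide +kernel) (by decide +kernel)

theorem good33 : GoodP [3, 5, 2]
    [4, 3, 6, 7] :=
  good_of_chk [3, 1] 0 (by decide +kernel) (by decide +kernel)

theorem good34 : GoodP [3, 2, 8, 6, 0]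
    [1, 8, 7, 3, 4, 5] :=
  good_of_chk [2, 0] 0 (by decide +kernel) (by decide +kernel)

theorem good35 : GoodP [7, 5, 1]
    [2, 4, 3] :=
  good_of_chk [3] 0 (by decide +kernel) (by decide +kernel)

theorem good36 : GoodP [6, 2, 4, 3, 1, 4]
    [0, 5, 7, 3] :=
  good_of_chk [6] 0 (by decide +kernel) (by decide +kernel)

theorem good37 : GoodP [7, 5, 1]
    [4, 3, 2, 4, 3, 8] :=
  good_of_chk [4, 0] 0 (by decide +kernel) (by decide +kernel)

theorem good38 : GoodP [2, 5, 8]
    [1, 6, 7, 3] :=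
  good_of_chk [4, 5] 0 (by decide +kernel) (by decide +kernel)

end Cfsg.Agent.H494.TC.Fi
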