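import Cfsg.Agent.H494.TC.FiChk

/-!
# The pairs of elements of order 7 for the classes 39 … 57 of `Fi22` (helper494; rows `Fi22` of S4173, S2464, S2452)
-/

set_option autoImplicit false
set_option maxRecDepth 1000000
set_option exponentiation.threshold 300000

namespace Cfsg.Agent.H494.TC.Fi

theorem good39 : GoodP [7, 4, 6, 0, 2]
    [1, 3, 5] :=
  good_of_chk [5, 0] 0 (by decide +kernel) (by decide +kernel)

theorem good40 : GoodP [2, 7, 6, 4, 7, 3, 1, 7]
    [0, 2, 8, 7, 3, 4, 5, 8] :=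
  good_of_chk [7, 1, 0] 0 (by decide +kernel) (by decide +kernel)

theorem good41 : GoodP [8, 2, 5]
    [4, 7, 3] :=
  good_of_chk [5, 2] 0 (by decide +kernel) (by decide +kernel)

theorem good42 : GoodP [8, 3, 7, 0, 4, 3, 8, 5, 2, 8]
    [6, 7, 3, 2, 1] :=
  good_of_chk [5, 0, 1] 0 (by decide +kernel) (by decide +kernel)

theorem good43 : GoodP [7, 5, 1]
    [0, 4, 3, 2] :=
  good_of_chk [2] 0 (by decide +kernel) (by decide +kernel)

theorem good44 : GoodP [7, 5, 2, 1, 6, 3, 2, 5, 7]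
    [1, 0, 4, 8, 7, 3, 6, 5, 4] :=
  good_of_chk [2, 1] 0 (by decide +kernel) (by decide +kernel)

theorem good45 : GoodP [5, 8, 2, 0]
    [1, 3, 4, 7] :=
  good_of_chk [3, 7, 2, 0] 0 (by decide +kernel) (by decide +kernel)

theorem good46 : GoodP [2, 8, 4, 0]
    [1, 7, 3, 5] :=
  good_of_chk [3, 7, 1] 0 (by decide +kernel) (by decide +kernel)

theorem good47 : GoodP [4, 8, 0]
    [1, 7, 3] :=
  good_of_chk [2, 3, 7, 1] 0 (by decide +kernel) (by decide +kernel)

theorem good48 : GoodP [7, 2, 2, 1, 3, 6, 8, 2]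
    [0, 2, 7, 3, 4, 5] :=
  good_of_chk [5, 1] 0 (by decide +kernel) (by decide +kernel)

theorem good49 : GoodP [2, 5, 0, 8]
    [1, 4, 7, 3, 6] :=
  good_of_chk [6, 2, 0] 0 (by decide +kernel) (by decide +kernel)

theorem good50 : GoodP [1, 4, 8]
    [5, 7, 3, 2] :=
  good_of_chk [3, 1] 0 (by decide +kernel) (by decide +kernel)

theorem good51 : GoodP [2, 3, 2, 5, 8, 1]
    [0, 4, 3, 7] :=
  good_of_chk [7, 2] 0 (by decide +kernel) (by decide +kernel)

theorem good52 : GoodP [5, 1, 8, 4]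
    [6, 7, 3, 2] :=
  good_of_chk [4, 1] 0 (by decide +kernel) (by decide +kernel)

theorem good53 : GoodP [2, 5, 0, 8]
    [1, 6, 7, 3] :=
  good_of_chk [5, 2, 1] 0 (by decide +kernel) (by decide +kernel)

theorem good54 : GoodP [2, 7, 1, 8, 6, 4]
    [0, 5, 7, 3, 4, 7, 3] :=
  good_of_chk [4, 2] 0 (by decide +kernel) (by decide +kernel)

theorem good55 : GoodP [3, 4, 2, 0, 6]
    [7, 3, 2, 1, 5] :=
  good_of_chk [4] 0 (by decide +kernel) (by decide +kernel)

theorem good56 : GoodP [8, 0, 2, 4, 6]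
    [1, 5, 7, 3] :=
  good_of_chk [3, 2, 1] 0 (by decide +kernel) (by decide +kernel)

theorem good57 : GoodP [4, 0, 3, 6, 8, 4]
    [5, 7, 3, 2, 1] :=
  good_of_chk [2, 0, 1] 0 (by decide +kernel) (by decide +kernel)

end Cfsg.Agent.H494.TC.Fi
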