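import Cfsg.Agent.H494.TC.FiDA
import Cfsg.Agent.H494.TC.FiDB
import Cfsg.Agent.H494.TC.FiDC
import Cfsg.Agent.H494.TC.Base
import Cfsg.Agent.H264.TC.Sylow
import Cfsg.Agent.H140.TC.Fam
import Cfsg.Agent.S1696

/-!
# The row `Fi22` of S4173, S2464, S2452: every `g ≠ 1` is a product of two elements of order 7 (helper494)
-/

set_option autoImplicit false
set_option maxRecDepth 1000000
set_option exponentiation.threshold 300000

namespace Cfsg.Agent.H494.TC.Fi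

open Cfsg Cfsg.Spor Cfsg.Agent.H123.Cls Cfsg.Agent.Lib.BitNet
open Cfsg.Agent.H494.F22 (rho rho_injective rp)
open Cfsg.Agent.H123.Cls.FiDat
open Cfsg.Agent.H326.QS.FiRow (cw el_cw chkE el_eq_of_chkE)

theorem card_Fi : Nat.card Spor.Fi22 = 64561751654400 := Cfsg.Agent.S1696.result.2

instance finite_Fi : Finite Spor.Fi22 := Nat.finite_of_card_ne_zero (by rw [card_Fi]; norm_num)

theorem X_pow : el X ^ 7 = 1 := by
  rw [← el_rp, el_eq_of_chkE (v := []) (by decide +kernel), el_nil]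

theorem X_ne : el X ≠ 1 := el_ne_one (by decide) 0 (by decide +kernel)

theorem order_seven {g : Spor.Fi22} (h1 : g ^ 7 = 1) (h2 : g ≠ 1) : orderOf g = 7 :=
  haveI : Fact (Nat.Prime 7) := ⟨by norm_num⟩
  orderOf_eq_prime h1 h2

theorem order_X : orderOf (el X) = 7 := order_seven X_pow X_ne

/-- the conjugating word -/
def tX : List ℕ := [2, 1, 3, 5, 4, 3, 6]

theorem X_rat : el X = el tX * el X ^ 3 * (el tX)⁻¹ := by
  have h : el (tX ++ rp 3 X ++ tX.reverse) = el X := el_eq_of_chkE (by decide +kernel)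
  rw [el_append, el_append, el_rp, el_reverse] at h
  exact h.symm

theorem isConj_7 {y : Spor.Fi22} (hy : orderOf y = 7) : ∃ u : Spor.Fi22, y = u * el X * u⁻¹ :=
  H264.TC.Sylow.conj_of_gen (p := 7) (by norm_num) (by rw [card_Fi]; norm_num) (by rw [card_Fi]; norm_num)
    order_X hy X_rat (by decide)

theorem good_all : ∀ y ∈ W, el (cw y.2.1 y.2.2.1) ≠ 1 → GoodP y.2.1 y.2.2.1 :=
  List.forall_mem_cons.2 ⟨fun _ => good0, List.forall_mem_cons.2 ⟨fun _ => good1, List.forall_mem_cons.2 ⟨fun _ => good2, 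
  List.forall_mem_cons.2 ⟨fun _ => good3, List.forall_mem_cons.2 ⟨fun _ => good4, List.forall_mem_cons.2 ⟨fun _ => good5, 
  List.forall_mem_cons.2 ⟨fun _ => good6, List.forall_mem_cons.2 ⟨fun _ => good7, List.forall_mem_cons.2 ⟨fun _ => good8, 
  List.forall_mem_cons.2 ⟨fun _ => good9, List.forall_mem_cons.2 ⟨fun _ => good10, List.forall_mem_cons.2 ⟨fun _ => good11, 
  List.forall_mem_cons.2 ⟨fun _ => good12, List.forall_mem_cons.2 ⟨fun _ => good13, List.forall_mem_cons.2 ⟨fun _ => good14, 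
  List.forall_mem_cons.2 ⟨fun _ => good15, List.forall_mem_cons.2 ⟨fun _ => good16, List.forall_mem_cons.2 ⟨fun _ => good17, 
  List.forall_mem_cons.2 ⟨fun _ => good18, List.forall_mem_cons.2 ⟨fun _ => good19, List.forall_mem_cons.2 ⟨fun _ => good20, 
  List.forall_mem_cons.2 ⟨fun _ => good21, List.forall_mem_cons.2 ⟨fun _ => good22, List.forall_mem_cons.2 ⟨fun _ => good23, 
  List.forall_mem_cons.2 ⟨fun _ => good24, List.forall_mem_cons.2 ⟨fun _ => good25, List.forall_mem_cons.2 ⟨fun _ => good26, 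
  List.forall_mem_cons.2 ⟨fun _ => good27, List.forall_mem_cons.2 ⟨fun _ => good28, List.forall_mem_cons.2 ⟨fun _ => good29, 
  List.forall_mem_cons.2 ⟨fun _ => good30, List.forall_mem_cons.2 ⟨fun _ => good31, List.forall_mem_cons.2 ⟨fun _ => good32, 
  List.forall_mem_cons.2 ⟨fun _ => good33, List.forall_mem_cons.2 ⟨fun _ => good34, List.forall_mem_cons.2 ⟨fun _ => good35, 
  List.forall_mem_cons.2 ⟨fun _ => good36, List.forall_mem_cons.2 ⟨fun _ => good37, List.forall_mem_cons.2 ⟨fun _ => good38, 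
  List.forall_mem_cons.2 ⟨fun _ => good39, List.forall_mem_cons.2 ⟨fun _ => good40, List.forall_mem_cons.2 ⟨fun _ => good41, 
  List.forall_mem_cons.2 ⟨fun _ => good42, List.forall_mem_cons.2 ⟨fun _ => good43, List.forall_mem_cons.2 ⟨fun _ => good44, 
  List.forall_mem_cons.2 ⟨fun _ => good45, List.forall_mem_cons.2 ⟨fun _ => good46, List.forall_mem_cons.2 ⟨fun _ => good47, 
  List.forall_mem_cons.2 ⟨fun _ => good48, List.forall_mem_cons.2 ⟨fun _ => good49, List.forall_mem_cons.2 ⟨fun _ => good50, 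
  List.forall_mem_cons.2 ⟨fun _ => good51, List.forall_mem_cons.2 ⟨fun _ => good52, List.forall_mem_cons.2 ⟨fun _ => good53, 
  List.forall_mem_cons.2 ⟨fun _ => good54, List.forall_mem_cons.2 ⟨fun _ => good55, List.forall_mem_cons.2 ⟨fun _ => good56, 
  List.forall_mem_cons.2 ⟨fun _ => good57, List.forall_mem_cons.2 ⟨fun h => absurd (el_eq_of_chkE (u := cw [0] [0]) (v := []) (by decide +kernel)) h,
  List.forall_mem_nil _⟩⟩⟩⟩⟩⟩⟩⟩⟩⟩⟩⟩⟩⟩⟩⟩⟩⟩⟩⟩⟩⟩⟩⟩⟩⟩⟩⟩⟩⟩⟩⟩⟩⟩⟩⟩⟩⟩⟩⟩⟩⟩⟩⟩⟩⟩⟩⟩⟩⟩⟩⟩⟩⟩⟩⟩⟩⟩⟩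

/-- every nonidentity element is a product of two elements of order 7 -/
theorem exists_pair (g : Spor.Fi22) (hg : g ≠ 1) :
    ∃ y z : Spor.Fi22, orderOf y = 7 ∧ orderOf z = 7 ∧ g = y * z := by
  obtain ⟨y, hy, θ, hθ⟩ := words_cover g
  rw [← el_cw] at hθ
  have hne : el (cw y.2.1 y.2.2.1) ≠ 1 := by
    intro h1
    rw [h1, map_one] at hθ
    exact hg hθ
  obtain ⟨w, h1, h2⟩ := good_all y hy hne
  refine ⟨θ (el w * el X * (el w)⁻¹), θ (el (zw w y.2.1 y.2.2.1)), ?_, ?_, ?_⟩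
  · rw [MulEquiv.orderOf_eq, ← order_X]
    exact orderOf_injective (MulAut.conj (el w)).toMonoidHom (MulAut.conj (el w)).injective (el X)
  · rw [MulEquiv.orderOf_eq]
    exact order_seven h1 h2
  · rw [← map_mul, hθ]
    congr 1
    rw [zw, el_append, el_append, el_append, el_reverse, el_reverse]
    group

theorem prd_Fi (g : Spor.Fi22) (hg : g ≠ 1) : ∃ u v : Spor.Fi22, g = (u * el X * u⁻¹) * (v * el X * v⁻¹) := by
  obtain ⟨y, z, hy, hz, h⟩ := exists_pair g hg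
  obtain ⟨u, hu⟩ := isConj_7 hy
  obtain ⟨v, hv⟩ := isConj_7 hz
  exact ⟨u, v, by rw [← hu, ← hv, h]⟩

/-- **the row `Fi22` of S4173, S2464, S2452** -/
theorem pp_Fi22 {S : Type*} [Group S] (h : Spor.IsoFi22 S) : H494.TC.PP S := by
  obtain ⟨e⟩ := h
  exact H494.TC.PP.of_equiv e ⟨el X, by rw [order_X]; norm_num, by rw [order_X]; norm_num, prd_Fi⟩

theorem tc_Fi22 {S : Type*} [Group S] (h : Spor.IsoFi22 S) : H140.TC.TC S := (pp_Fi22 h).tc

theorem tc6_Fi22 {S : Type*} [Group S] (h : Spor.IsoFi22 S) : ∃ x y : S, Nat.Coprime (orderOf x) 6 ∧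
    Nat.Coprime (orderOf y) 6 ∧ ∀ g : S, g ≠ 1 → ∃ u v : S, g = (u * x * u⁻¹) * (v * y * v⁻¹) := (pp_Fi22 h).cop

end Cfsg.Agent.H494.TC.Fi
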