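import Cfsg.Agent.H326.QS.FiRow

/-!
# Checking pairs of elements of order 7 in `Fi22` (helper494)
-/

set_option autoImplicit false
set_option maxRecDepth 1000000
set_option exponentiation.threshold 300000

namespace Cfsg.Agent.H494.TC.Fi

open Cfsg Cfsg.Spor Cfsg.Agent.H123.Cls Cfsg.Agent.Lib.BitNet
open Cfsg.Agent.H494.F22 (rho rho_injective rp)
open Cfsg.Agent.H123.Cls.FiDat
open Cfsg.Agent.H326.QS.FiRow (cw el_cw chkE el_eq_of_chkE)

/-- an element of order 7 : the product of the nodes `b c d e f g` -/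
def X : List ℕ := [1, 2, 3, 4, 5, 6]

/-- the word of `(w x w⁻¹)⁻¹ [a, b]` -/
def zw (w a b : List ℕ) : List ℕ := w ++ X.reverse ++ w.reverse ++ cw a b

theorem el_nil : el [] = 1 := rfl

theorem el_rp (u : List ℕ) : ∀ m : ℕ, el (rp m u) = el u ^ m
  | 0 => by rw [pow_zero]; rfl
  | m + 1 => by
    have h : rp (m + 1) u = u ++ rp m u := rfl
    rw [h, el_append, el_rp u m, pow_succ']

/-- the check of one class -/
def GoodP (a b : List ℕ) : Prop := ∃ w : List ℕ, el (zw w a b) ^ 7 = 1 ∧ el (zw w a b) ≠ 1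

/-- a word moving a point is not the identity -/
theorem el_ne_one {l : List ℕ} (hl : ∀ x ∈ l, x < 9) (p : Fin 3510) (h : Nat.beq (evw 12 gens l p) p = false) :
    el l ≠ 1 := by
  intro h1
  have h2 := ev_tab l hl p
  rw [h1, map_one] at h2
  have h3 : Nat.beq (evw 12 gens l p) p = true := by
    rw [← h2]
    exact Nat.beq_refl _
  rw [h] at h3
  exact Bool.false_ne_true h3

theorem good_of_chk {a b : List ℕ} (w : List ℕ) (p : Fin 3510) (h1 : chkE (rp 7 (zw w a b)) [] = true)
    (h2 : band (chkL 9 (zw w a b)) (Nat.beq (cond (Nat.beq (evw 12 gens (zw w a b) p) p) 1 0) 0) = true) :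
    GoodP a b := by
  refine ⟨w, ?_, ?_⟩
  · rw [← el_rp, el_eq_of_chkE h1, el_nil]
  · obtain ⟨h3, h4⟩ := band_true h2
    refine el_ne_one (chkL_iff _ _ h3) p ?_
    cases h5 : Nat.beq (evw 12 gens (zw w a b) p) p
    · rfl
    · rw [h5] at h4
      exact absurd h4 (by decide)

end Cfsg.Agent.H494.TC.Fi
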