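import Cfsg.Agent.H494.TC.FiChk

/-!
# The pairs of elements of order 7 for the classes 0 … 19 of `Fi22` (helper494; rows `Fi22` of S4173, S2464, S2452)
-/

set_option autoImplicit false
set_option maxRecDepth 1000000
set_option exponentiation.threshold 300000

namespace Cfsg.Agent.H494.TC.Fi

theorem good0 : GoodP [3, 7, 4, 3]
    [2, 4] :=
  good_of_chk [1] 0 (by decide +kernel) (by decide +kernel)

theorem good1 : GoodP [7]
    [3, 8] :=
  good_of_chk [2, 3, 7, 2, 1] 0 (by decide +kernel) (by decide +kernel)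

theorem good2 : GoodP [8, 6, 5, 4, 3, 2, 7, 0, 4, 2, 2, 3, 4, 5, 6, 8]
    [3, 4, 6, 7, 8, 7, 3, 2, 4] :=
  good_of_chk [8, 1, 2, 3, 7, 4] 0 (by decide +kernel) (by decide +kernel)

theorem good3 : GoodP [1, 8, 6]
    [2, 5, 7] :=
  good_of_chk [5, 1] 2 (by decide +kernel) (by decide +kernel)

theorem good4 : GoodP [3, 7, 4, 0, 3, 8, 5, 4, 7, 3]
    [2, 8, 7] :=
  good_of_chk [1] 0 (by decide +kernel) (by decide +kernel)

theorem good5 : GoodP [0, 3]
    [1, 7] :=
  good_of_chk [2, 0, 1] 0 (by decide +kernel) (by decide +kernel)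

theorem good6 : GoodP [2]
    [1] :=
  good_of_chk [0] 0 (by decide +kernel) (by decide +kernel)

theorem good7 : GoodP [2, 4, 7]
    [3, 8] :=
  good_of_chk [3, 1] 0 (by decide +kernel) (by decide +kernel)

theorem good8 : GoodP [3, 7, 5, 1, 0, 8, 2, 4, 6, 1, 5, 7, 3]
    [4, 3, 2] :=
  good_of_chk [7] 0 (by decide +kernel) (by decide +kernel)

theorem good9 : GoodP [8, 4]
    [5, 7, 3] :=
  good_of_chk [2, 3, 7, 6, 5, 2] 0 (by decide +kernel) (by decide +kernel)

theorem good10 : GoodP [3, 5, 2, 7, 3]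
    [4, 6, 8, 7, 3, 5, 4] :=
  good_of_chk [6, 5, 1, 0] 0 (by decide +kernel) (by decide +kernel)

theorem good11 : GoodP [1, 5, 3]
    [0, 2, 4, 6] :=
  good_of_chk [3] 0 (by decide +kernel) (by decide +kernel)

theorem good12 : GoodP [8, 2]
    [7, 3] :=
  good_of_chk [4, 5, 2] 0 (by decide +kernel) (by decide +kernel)

theorem good13 : GoodP [7, 2, 4]
    [1, 3, 5] :=
  good_of_chk [2] 0 (by decide +kernel) (by decide +kernel)

theorem good14 : GoodP [4, 7, 2]
    [1, 3, 8] :=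
  good_of_chk [1, 2] 0 (by decide +kernel) (by decide +kernel)

theorem good15 : GoodP [8, 2, 5]
    [1, 4, 7, 3] :=
  good_of_chk [4] 0 (by decide +kernel) (by decide +kernel)

theorem good16 : GoodP [1, 7, 4]
    [2, 3] :=
  good_of_chk [] 0 (by decide +kernel) (by decide +kernel)

theorem good17 : GoodP [5, 0, 3, 8]
    [1, 6, 7] :=
  good_of_chk [5, 2] 0 (by decide +kernel) (by decide +kernel)

theorem good18 : GoodP [4, 3, 6, 2, 3]
    [7, 3, 5] :=
  good_of_chk [5, 2] 0 (by decide +kernel) (by decide +kernel)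

theorem good19 : GoodP [7, 1, 8, 3, 5, 7, 7, 2]
    [1, 2, 8, 7, 3, 4, 3] :=
  good_of_chk [7] 0 (by decide +kernel) (by decide +kernel)

end Cfsg.Agent.H494.TC.Fi
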